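import Cfsg.Agent.H6.Fi22.Tab0

set_option autoImplicit false
set_option maxRecDepth 100000
set_option Elab.async false

namespace Cfsg.H6.Fi22

theorem p0 : allR (ptU img) 0 640 = true := by decide +kernel

theorem p1 : allR (ptU img) 640 640 = true := by decide +kernel

theorem p2 : allR (ptU img) 1280 640 = true := by decide +kernel

theorem p3 : allR (ptU img) 1920 640 = true := by decide +kernel

theorem p4 : allR (ptU img) 2560 640 = true := by decide +kernel

theorem p5 : allR (ptU img) 3200 310 = true := by decide +kernel

theorem q0_0 : allR (ivl img Ws 1 694) 1 693 = true := by decide +kernel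

theorem q1_0 : allR (ivl img Ws 694 3510) 694 2816 = true := by decide +kernel

end Cfsg.H6.Fi22
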