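import Cfsg.Agent.H6.Chain
import Cfsg.Prelude.Def_Spor_Fi22

set_option autoImplicit false
set_option maxRecDepth 100000

namespace Cfsg.H6.Fi22

def L : List (FreeGroup Spor.Fi22.Gen) := [1, Spor.Fi22.a, Spor.Fi22.b, Spor.Fi22.c, Spor.Fi22.d, Spor.Fi22.e, Spor.Fi22.f, Spor.Fi22.g, Spor.Fi22.h, Spor.Fi22.i]

def idx : Spor.Fi22.Gen → ℕ
  | .a => 1
  | .b => 2
  | .c => 3
  | .d => 4
  | .e => 5
  | .f => 6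
  | .g => 7
  | .h => 8
  | .i => 9

def R : List (List ℕ) := [[1,2,1,2,1,2], [1,3,1,3], [1,4,1,4], [1,5,1,5], [1,6,1,6], [1,7,1,7], [1,8,1,8], [1,9,1,9], [2,3,2,3,2,3], [2,4,2,4], [2,5,2,5], [2,6,2,6], [2,7,2,7], [2,8,2,8], [2,9,2,9], [3,4,3,4,3,4], [3,5,3,5], [3,6,3,6], [3,7,3,7], [3,8,3,8], [3,9,3,9], [4,5,4,5,4,5], [4,6,4,6], [4,7,4,7], [4,8,4,8,4,8], [4,9,4,9], [5,6,5,6,5,6], [5,7,5,7], [5,8,5,8], [5,9,5,9], [6,7,6,7,6,7], [6,8,6,8], [6,9,6,9], [7,8,7,8], [7,9,7,9], [8,9,8,9,8,9], [4,3,2,4,5,6,4,8,9,4,3,2,4,5,6,4,8,9,4,3,2,4,5,6,4,8,9,4,3,2,4,5,6,4,8,9,4,3,2,4,5,6,4,8,9,4,3,2,4,5,6,4,8,9,4,3,2,4,5,6,4,8,9,4,3,2,4,5,6,4,8,9,4,3,2,4,5,6,4,8,9,4,3,2,4,5,6,4,8,9], [1,2,3,4,5,6,8,1,2,3,4,5,6,8,1,2,3,4,5,6,8,1,2,3,4,5,6,8,1,2,3,4,5,6,8,1,2,3,4,5,6,8,1,2,3,4,5,6,8,1,2,3,4,5,6,8,1,2,3,4,5,6,8], [2,3,4,5,6,7,8,2,3,4,5,6,7,8,2,3,4,5,6,7,8,2,3,4,5,6,7,8,2,3,4,5,6,7,8,2,3,4,5,6,7,8,2,3,4,5,6,7,8,2,3,4,5,6,7,8,2,3,4,5,6,7,8]]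

def X : List (List ℕ) := [[1], [2], [3], [4], [5], [6], [7], [8], [9]]

theorem hP : presOK Spor.Fi22.edges Spor.Fi22.extra L idx 42649378395939397566720 R = true := by decide +kernel

theorem hidx : ∀ a, L.getD (idx a) 1 = FreeGroup.of a := by intro a; cases a <;> rfl

/-- The letters of the presented group. -/
def ev : ℕ → Spor.Fi22 := evP Spor.Fi22.edges Spor.Fi22.extra L

theorem hev : Good ev 42649378395939397566720 := presOK_good hP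

theorem hR : Rels ev R := presOK_rels hP hidx

theorem hX : gen ev X = ⊤ := gen_eq_top hidx (by intro a; cases a <;> decide)

theorem lift {G : Type*} [Group G] {ev' : ℕ → G} (h : Good ev' 42649378395939397566720) (h' : Rels ev' R) :
    ∃ φ : Spor.Fi22 →* G, ∀ l, φ (ev l) = ev' l := presOK_lift hP h h'

end Cfsg.H6.Fi22
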