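import Cfsg.Agent.H6.Fi22.Pres
import Cfsg.Agent.H6.Fi22.Chk0

set_option autoImplicit false
set_option maxRecDepth 100000

namespace Cfsg.H6.Fi22

theorem ptOK : PtOK img 3510 LS EQS := ptOK_of_chk fun p h1 h2 => by
  rw [← ptU_eq]
  exact (range_join (range_join (allR_range p0 (by norm_num : 0 + 640 = 640)) (range_join (allR_range p1 (by norm_num : 640 + 640 = 1280)) (allR_range p2 (by norm_num : 1280 + 640 = 1920)))) (range_join (allR_range p3 (by norm_num : 1920 + 640 = 2560)) (range_join (allR_range p4 (by norm_num : 2560 + 640 = 3200)) (allR_range p5 (by norm_num : 3200 + 310 = 3510))))) p h1 h2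

theorem hrep : repOK 10 42649378395939397566720 LS EQS D Fi22.R = true := by decide +kernel

theorem rep : Good (evR img 3510 10) 42649378395939397566720 ∧ Rels (evR img 3510 10) Fi22.R ∧
    IsAct (MonoidHom.id _) (evR img 3510 10) img 3510 10 := rep_sound ptOK hrep

theorem iv0 {G : Type*} [Group G] {φ : G →* Equiv.Perm ℕ} {ev : ℕ → G} (h : IsAct φ ev img 3510 10) :
    orb φ (gen ev Ws) 1 = Set.Ico 1 694 :=
  ivl_sound h (by decide +kernel) (allR_range q0_0 (by norm_num : 1 + 693 = 694))

theorem iv1 {G : Type*} [Group G] {φ : G →* Equiv.Perm ℕ} {ev : ℕ → G} (h : IsAct φ ev img 3510 10) :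
    orb φ (gen ev Ws) 694 = Set.Ico 694 3510 :=
  ivl_sound h (by decide +kernel) (allR_range q1_0 (by norm_num : 694 + 2816 = 3510))


end Cfsg.H6.Fi22
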